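import Cfsg.Agent.Lib.Helper63.BB.Defs
import Cfsg.Agent.Lib.Helper59.MC.Struct
import Cfsg.Agent.Lib.Helper85.UnifElt
import Cfsg.Agent.S4209

/-!
# S4144 "BB", package [A]: in a group of maximal class of order `p ^ (p+2)` all two-step
centralizers coincide, and some `p`-th power is outside `L p`
-/

set_option autoImplicit false

namespace Cfsg.Agent.Lib.Helper77.BB

open Cfsg.Agent.Lib.Helper63.MC Cfsg.Agent.Lib.Helper63.BB
open scoped commutatorElement

universe u

/-- **[A]** -/
theorem pkgA_of (hKB : PkgKBasic.{u}) (hAP : PkgAPow.{u}) : PkgA.{u} := by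
  intro X _ _ p _ hX hcl hPS
  have hp : p.Prime := Fact.out
  have hp2 : 2 ≤ p := hp.two_le
  have hcl' : Group.nilpotencyClass X = p + 2 - 1 := by rw [hcl]; omega
  obtain ⟨hcard, -⟩ := Cfsg.Agent.Lib.Helper59.MC.pkgStruct X p (p + 2) (by omega) hX hcl'
  have hc : ∀ i, 1 ≤ i → i ≤ p + 1 → Nat.card (L X i) = p ^ (p + 1 - i) := by
    intro i h1 h2
    rw [hcard i h1 (by omega)]
    congr 1
  have hLbot : L X (p + 1) = ⊥ :=
    Subgroup.eq_bot_of_card_eq _ (by rw [hc (p + 1) (by omega) le_rfl]; simp)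
  have hanti : ∀ {i j : ℕ}, i ≤ j → L X j ≤ L X i :=
    fun h => Cfsg.Agent.Lib.Helper85.UnifElt.L_anti h
  have hK : ∀ w, 1 ≤ w → w + 1 ≤ p → L X 1 ≤ K X w ∧ Nat.card (K X w) = p ^ (p + 1) := by
    intro w h1 h2
    obtain ⟨h, -, hcd⟩ := hKB X p (p + 2) (by omega) hX hcl' w h1 (by omega)
    exact ⟨h, by rw [hcd]; congr 1⟩
  have hex : ∀ w, 1 ≤ w → w + 1 ≤ p → ∃ s ∈ K X w, s ∉ L X 1 := by
    intro w h1 h2
    obtain ⟨hL, hcd⟩ := hK w h1 h2
    by_contra hcon
    push Not at hcon
    have hle : K X w ≤ L X 1 := hcon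
    have h := Subgroup.card_le_of_le hle
    rw [hcd, hc 1 le_rfl (by omega)] at h
    have := (Nat.pow_le_pow_iff_right hp.one_lt).mp h
    omega
  have hLp_central : ∀ z ∈ L X p, ∀ g : X, g * z = z * g := by
    intro z hz g
    have h : ⁅z, g⁆ ∈ L X (p + 1) := Cfsg.Agent.Lib.Helper85.UnifElt.comm_mem_L hz g
    rw [hLbot, Subgroup.mem_bot, commutatorElement_def] at h
    have e : z * g = g * z := by
      calc z * g = (z * g * z⁻¹ * g⁻¹) * (g * z) := by group
        _ = g * z := by rw [h, one_mul]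
    exact e.symm
  have hcent : ∀ w, 1 ≤ w → w + 1 ≤ p → ∀ t ∈ K X w, t ∉ L X 1 →
      ∀ z ∈ L X (p - 1), t * z = z * t := by
    intro w h1 h2 t ht htL z hz
    obtain ⟨hu1, hu2⟩ := hAP X p hX hcl hPS w h1 h2 t ht htL
    have hle : L X (p - 1) ≤ Subgroup.zpowers (t ^ p) ⊔ L X p :=
      Cfsg.Agent.Lib.Helper85.UnifElt.le_zpowers_sup (hanti (by omega)) (by
        rw [hc (p - 1) (by omega) (by omega), hc p (by omega) (by omega)]
        have e1 : p + 1 - (p - 1) = 2 := by omega
        have e2 : p + 1 - p = 1 := by omega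
        rw [e1, e2]; ring) hu1 hu2
    have hcen : Subgroup.zpowers (t ^ p) ⊔ L X p ≤ Subgroup.centralizer ({t} : Set X) := by
      apply sup_le
      · rw [Subgroup.zpowers_le, Subgroup.mem_centralizer_iff]
        intro h hh
        rw [Set.mem_singleton_iff] at hh
        subst hh
        exact (pow_mul_comm' h p).symm
      · intro y hy
        rw [Subgroup.mem_centralizer_iff]
        intro h hh
        rw [Set.mem_singleton_iff] at hh
        subst hh
        exact hLp_central y hy h
    have h := hcen (hle hz)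
    rw [Subgroup.mem_centralizer_iff] at h
    exact h t rfl
  refine ⟨?_, ?_⟩
  · intro w h1 h2
    by_contra hne
    obtain ⟨hLw, hcw⟩ := hK w h1 h2
    obtain ⟨hL1, hc1⟩ := hK 1 le_rfl (by omega)
    obtain ⟨t, htw, ht1⟩ : ∃ t ∈ K X w, t ∉ K X 1 := by
      by_contra hcon
      push Not at hcon
      have hle : K X w ≤ K X 1 := hcon
      exact hne (Subgroup.eq_of_le_of_card_ge hle (by rw [hcw, hc1]))
    have htL : t ∉ L X 1 := fun h => ht1 (hL1 h)
    obtain ⟨s1, hs1K, hs1L⟩ := hex 1 le_rfl (by omega)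
    have hCt : t ∈ Subgroup.centralizer (L X (p - 1) : Set X) := by
      rw [Subgroup.mem_centralizer_iff]
      intro z hz
      exact (hcent w h1 h2 t htw htL z hz).symm
    have hCs : s1 ∈ Subgroup.centralizer (L X (p - 1) : Set X) := by
      rw [Subgroup.mem_centralizer_iff]
      intro z hz
      exact (hcent 1 le_rfl (by omega) s1 hs1K hs1L z hz).symm
    have hCL : L X 1 ≤ Subgroup.centralizer (L X (p - 1) : Set X) := by
      have h := Cfsg.Agent.S4209.lcs_comm_top (K := X) (p - 1) 1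
      have e : p - 1 + 1 + 1 = p + 1 := by omega
      rw [e] at h
      have h0 : ⁅L X (p - 1), L X 1⁆ = ⊥ := le_bot_iff.mp (hLbot ▸ h)
      exact Subgroup.le_centralizer_iff.mp (Subgroup.commutator_eq_bot_iff_le_centralizer.mp h0)
    have hK1C : K X 1 ≤ Subgroup.centralizer (L X (p - 1) : Set X) := by
      have hle : K X 1 ≤ Subgroup.zpowers s1 ⊔ L X 1 :=
        Cfsg.Agent.Lib.Helper85.UnifElt.le_zpowers_sup hL1 (by
          rw [hc1, hc 1 le_rfl (by omega)]
          have e : p + 1 - 1 = p := by omega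
          rw [e, pow_succ']) hs1K hs1L
      exact hle.trans (sup_le (by rw [Subgroup.zpowers_le]; exact hCs) hCL)
    have hCtop : Subgroup.centralizer (L X (p - 1) : Set X) = ⊤ := by
      obtain ⟨a, ha, hca⟩ := (Nat.dvd_prime_pow hp).1
        (hX ▸ Subgroup.card_subgroup_dvd_card (Subgroup.centralizer (L X (p - 1) : Set X)))
      have hlt : p ^ (p + 1) < p ^ a := by
        rw [← hca, ← hc1]
        by_contra hcon
        have heq : K X 1 = Subgroup.centralizer (L X (p - 1) : Set X) :=
          Subgroup.eq_of_le_of_card_ge hK1C (not_lt.mp hcon)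
        exact ht1 (heq ▸ hCt)
      have hlt' : p + 1 < a := (Nat.pow_lt_pow_iff_right hp.one_lt).mp hlt
      have ha2 : a = p + 2 := by omega
      apply Subgroup.eq_top_of_card_eq
      rw [hca, ha2, hX]
    have hLpbot : L X p = ⊥ := by
      have e : p = (p - 1) + 1 := by omega
      have h1 : L X p = ⁅L X (p - 1), (⊤ : Subgroup X)⁆ := by
        conv_lhs => rw [e]
        exact Subgroup.lowerCentralSeries_succ _ _
      rw [h1, Subgroup.commutator_eq_bot_iff_le_centralizer]
      intro z hz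
      rw [Subgroup.mem_centralizer_iff]
      intro g _
      have hg : g ∈ Subgroup.centralizer (L X (p - 1) : Set X) := by rw [hCtop]; trivial
      exact ((Subgroup.mem_centralizer_iff.mp hg) z hz).symm
    have h := hc p (by omega) (by omega)
    rw [hLpbot, Subgroup.card_bot] at h
    have e : p + 1 - p = 1 := by omega
    rw [e, pow_one] at h
    omega
  · obtain ⟨g, hgK, hgL⟩ := hex 1 le_rfl (by omega)
    exact ⟨g, (hAP X p hX hcl hPS 1 le_rfl (by omega) g hgK hgL).2⟩

end Cfsg.Agent.Lib.Helper77.BB
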